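-- Team project OTSM (S5987), package [FIXEVM] (helper94): the fixing criterion for one element,
-- `i` even, in a space not of plus type (glue of SPLIT, DIMI, TSBD, TYPEN, WCMA, WCMB).
import Cfsg.Agent.Lib.Helper31.OTSM.Defs
import Cfsg.Agent.Lib.Helper61.OTSP.FixOdd

set_option autoImplicit false
open scoped MatrixGroups
open Matrix

namespace Cfsg.Agent.Lib.Helper94.OTSM

open Cfsg.Agent.Lib.Helper23.OHyp Cfsg.Agent.Lib.Helper99.OTSP Cfsg.Agent.Lib.Helper61.OTSP

universe u

/-- [FIXEVM] -/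
theorem pkgFixEvM_of (hSp : Cfsg.Agent.Lib.Helper99.OTSP.PkgSplit.{u})
    (hD : Cfsg.Agent.Lib.Helper99.OTSP.PkgDimI.{u}) (hT : Cfsg.Agent.Lib.Helper99.OTSP.PkgTsBd.{u})
    (hTy : Cfsg.Agent.Lib.Helper99.OTSP.PkgTypeN.{u})
    (hWa : Cfsg.Agent.Lib.Helper31.OTSM.PkgWCMa.{u})
    (hWb : Cfsg.Agent.Lib.Helper31.OTSM.PkgWCMb.{u}) :
    Cfsg.Agent.Lib.Helper31.OTSM.PkgFixEvM.{u} := by
  intro F _ _ ι _ _ Q r y hStd hplus d hd hev
  obtain ⟨hperp, hc, hNinv, hNdC, hNdN, hsplit⟩ := hSp F ι Q r y hStd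
  have hi : 0 < ordI (Fintype.card F) r := ordI_pos_otsp hStd.prime hStd.ndvd
  obtain ⟨j, hj⟩ := hD F ι Q r y hStd (movSp y) le_rfl hNinv
  have hsum := finrank_fix_add_mov y hc
  have hty := hTy F ι Q r y hStd hev
  have hdiv : Module.finrank F ↥(movSp y) / ordI (Fintype.card F) r = j := by
    rw [hj]; exact Nat.mul_div_cancel_left j hi
  rw [hdiv] at hty
  have hNeven : Even (Module.finrank F ↥(movSp y)) := by
    rw [hj]; exact hev.mul_right j
  have hcard : Even (Fintype.card ι) := ⟨d, by omega⟩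
  refine ⟨j, ?_, ?_, ?_, hj, ?_⟩
  · omega
  · intro hy1
    by_contra hj0
    have hj00 : j = 0 := by omega
    apply hy1
    apply eq_one_of_mov
    rw [hj, hj00, Nat.mul_zero]
  · intro h2d
    have hNtop : movSp y = ⊤ := by
      apply Submodule.eq_top_of_finrank_eq
      rw [hj, h2d, Module.finrank_fintype_fun_eq_card, hd]
    rw [← Nat.not_even_iff_odd]
    intro hje
    apply hplus
    rw [← hNtop]
    exact hty.mpr hje
  · intro m S
    constructor
    · rintro hbound ⟨W, hWm, hWts, hWinv⟩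
      obtain ⟨hWsplit, hWNinv⟩ := hsplit W hWinv
      obtain ⟨s, hs⟩ := hD F ι Q r y hStd (W ⊓ movSp y) inf_le_right hWNinv
      have hdim := finrank_split hc hWsplit
      have hb1 := hbound (W ⊓ movSp y) inf_le_right hWNinv
        (fun w hw => hWts w (Submodule.mem_inf.mp hw).1)
      refine ⟨s, ?_, ?_, ?_⟩
      · have h1 : ordI (Fintype.card F) r * s ≤ ordI (Fintype.card F) r * S := by omega
        exact Nat.le_of_mul_le_mul_left h1 hi
      · omega
      · by_cases hje : Even j
        · rw [if_pos hje]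
          have hb2 := (hWa F ι Q hStd.nondeg hplus hcard (fixSp y) (movSp y) hperp hc
            (hty.mpr hje)).1 (W ⊓ fixSp y) inf_le_right
            (fun w hw => hWts w (Submodule.mem_inf.mp hw).1)
          omega
        · rw [if_neg hje]
          have hb2 := hT F ι Q hStd.nondeg (fixSp y) (W ⊓ fixSp y) hNdC inf_le_right
            (fun w hw => hWts w (Submodule.mem_inf.mp hw).1)
          omega
    · rintro hex ⟨s, hsS, hsm, hle⟩
      obtain ⟨L', hL'N, hL'inv, hL'ts, hL'dim⟩ := hex s hsS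
      have hU : ∃ U : Submodule F (ι → F), U ≤ fixSp y ∧ TS Q U ∧
          Module.finrank F ↥U = m - ordI (Fintype.card F) r * s := by
        by_cases hje : Even j
        · rw [if_pos hje] at hle
          exact (hWa F ι Q hStd.nondeg hplus hcard (fixSp y) (movSp y) hperp hc
            (hty.mpr hje)).2 (m - ordI (Fintype.card F) r * s) (by omega)
        · rw [if_neg hje] at hle
          have hnp : ¬ Plus Q (movSp y) := fun h => hje (hty.mp h)
          exact hWb F ι Q hStd.nondeg hplus hcard (fixSp y) (movSp y) hperp hc hnp hNeven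
            (m - ordI (Fintype.card F) r * s) (by omega)
      obtain ⟨U, hUC, hUts, hUdim⟩ := hU
      exact fixTS_sup hperp hc hUC hUts hL'N hL'inv hL'ts (by omega)

end Cfsg.Agent.Lib.Helper94.OTSM
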