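-- Team project OTSM (S5987), package [FIXODDM] (helper94): the fixing criterion for one element,
-- `i` odd, in a space not of plus type (glue of SPLIT, DIMI, SUBI, TSBD, NHYP, WCMA).
import Cfsg.Agent.Lib.Helper31.OTSM.Defs
import Cfsg.Agent.Lib.Helper61.OTSP.FixOdd

set_option autoImplicit false
open scoped MatrixGroups
open Matrix

namespace Cfsg.Agent.Lib.Helper94.OTSM

open Cfsg.Agent.Lib.Helper23.OHyp Cfsg.Agent.Lib.Helper99.OTSP Cfsg.Agent.Lib.Helper61.OTSP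

universe u

/-- [FIXODDM] -/
theorem pkgFixOddM_of (hSp : Cfsg.Agent.Lib.Helper99.OTSP.PkgSplit.{u})
    (hD : Cfsg.Agent.Lib.Helper99.OTSP.PkgDimI.{u}) (hSu : Cfsg.Agent.Lib.Helper99.OTSP.PkgSubI.{u})
    (hT : Cfsg.Agent.Lib.Helper99.OTSP.PkgTsBd.{u}) (hN : Cfsg.Agent.Lib.Helper99.OTSP.PkgNHyp.{u})
    (hW : Cfsg.Agent.Lib.Helper31.OTSM.PkgWCMa.{u}) :
    Cfsg.Agent.Lib.Helper31.OTSM.PkgFixOddM.{u} := by
  intro F _ _ ι _ _ Q r y hStd hplus d hd hodd
  obtain ⟨hperp, hc, hNinv, hNdC, hNdN, hsplit⟩ := hSp F ι Q r y hStd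
  obtain ⟨L, hLN, hLinv, hLts, hLdim⟩ := hN F ι Q r y hStd hodd
  have hi : 0 < ordI (Fintype.card F) r := ordI_pos_otsp hStd.prime hStd.ndvd
  obtain ⟨j, hj⟩ := hD F ι Q r y hStd L hLN hLinv
  have hsum := finrank_fix_add_mov y hc
  have hNdim : Module.finrank F ↥(movSp y) = 2 * (ordI (Fintype.card F) r * j) := by omega
  have hplusN : Plus Q (movSp y) := ⟨L, hLN, hLts, hLdim⟩
  have hcard : Even (Fintype.card ι) := ⟨d, by omega⟩
  obtain ⟨hWup, hWex⟩ := hW F ι Q hStd.nondeg hplus hcard (fixSp y) (movSp y) hperp hc hplusN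
  have hbot := hWup ⊥ bot_le (fun w hw => by
    rw [(Submodule.mem_bot F).mp hw]
    have h0 := hStd.nondeg.1 (0 : F) (0 : ι → F)
    simpa using h0)
  rw [finrank_bot] at hbot
  refine ⟨j, ?_, ?_, hNdim, ?_⟩
  · omega
  · intro hy1
    by_contra hj0
    have hj00 : j = 0 := by omega
    apply hy1
    apply eq_one_of_mov
    rw [hNdim, hj00, Nat.mul_zero, Nat.mul_zero]
  · intro m
    constructor
    · rintro ⟨W, hWm, hWts, hWinv⟩
      obtain ⟨hWsplit, hWNinv⟩ := hsplit W hWinv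
      obtain ⟨s, hs⟩ := hD F ι Q r y hStd (W ⊓ movSp y) inf_le_right hWNinv
      have hdim := finrank_split hc hWsplit
      have hb1 := hT F ι Q hStd.nondeg (movSp y) (W ⊓ movSp y) hNdN inf_le_right
        (fun w hw => hWts w (Submodule.mem_inf.mp hw).1)
      have hb2 := hWup (W ⊓ fixSp y) inf_le_right
        (fun w hw => hWts w (Submodule.mem_inf.mp hw).1)
      refine ⟨s, ?_, ?_, ?_⟩
      · have h1 : ordI (Fintype.card F) r * s ≤ ordI (Fintype.card F) r * j := by omega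
        exact Nat.le_of_mul_le_mul_left h1 hi
      · omega
      · omega
    · rintro ⟨s, hsj, hsm, hle⟩
      obtain ⟨L', hL'L, hL'inv, hL'dim⟩ := hSu F ι Q r y hStd L hLN hLinv s
        (by rw [hj]; exact Nat.mul_le_mul_left _ hsj)
      obtain ⟨U, hUC, hUts, hUdim⟩ := hWex (m - ordI (Fintype.card F) r * s) (by omega)
      exact fixTS_sup hperp hc hUC hUts (hL'L.trans hLN) hL'inv
        (fun w hw => hLts w (hL'L hw)) (by omega)

end Cfsg.Agent.Lib.Helper94.OTSM
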